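import Cfsg.Prelude.Def_ParabolicCharacters
import Cfsg.Agent.Eq.Def_ParabolicCharacters
import Cfsg.Agent.Sl2Chars.Twist

/-!
# Characters of `SL₂`: the statements' form of the Borel subgroup and of the twist
-/

set_option autoImplicit false
set_option linter.unusedSectionVars false

noncomputable section

namespace CfsgLib.Sl2Chars

open Cfsg CfsgLib.SL2

variable {F : Type*} [Field F] [Fintype F] [DecidableEq F]

local notation "SLG" => Matrix.SpecialLinearGroup (Fin 2) F

lemma comap_upperTriangularGL :
    (upperTriangularGL 2 F).comap Matrix.SpecialLinearGroup.toGL = (B : Subgroup SLG) := by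
  ext g
  show Matrix.BlockTriangular (g : Matrix (Fin 2) (Fin 2) F) id ↔ _
  rw [mem_B]
  constructor
  · intro h
    exact h (show id (0 : Fin 2) < id (1 : Fin 2) by decide)
  · intro h i j hij
    fin_cases i <;> fin_cases j <;> simp at hij ⊢
    exact h

omit [Fintype F] [DecidableEq F] in
lemma indFun_congr {G : Type*} [Group G] [Fintype G] {H K : Subgroup G} (h : H = K) (θ : G → ℂ) :
    indFun H (fun x => θ x) = indFun K (fun x => θ x) := by
  subst h; rfl

lemma indFun_comap_eq_P (α : MulChar F ℂ) :
    indFun ((upperTriangularGL 2 F).comap Matrix.SpecialLinearGroup.toGL)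
        (fun b => α (((b : SLG) : Matrix (Fin 2) (Fin 2) F) 0 0)) = P α :=
  indFun_congr comap_upperTriangularGL
    (fun x : SLG => α ((x : Matrix (Fin 2) (Fin 2) F) 0 0))

/-- `diag (e, 1)`. -/
def diagE (e : F) (he : e ≠ 0) : Matrix.GeneralLinearGroup (Fin 2) F :=
  Matrix.GeneralLinearGroup.mkOfDetNeZero !![e, 0; 0, 1] (by simpa [Matrix.det_fin_two_of] using he)

lemma twist_eq_of_conj {e : F} (he : e ≠ 0) (g h : SLG)
    (hgh : Matrix.SpecialLinearGroup.toGL h =
      (diagE e he)⁻¹ * Matrix.SpecialLinearGroup.toGL g * ((diagE e he)⁻¹)⁻¹) :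
    twist (Units.mk0 e he) h = g := by
  rw [inv_inv, mul_assoc, eq_inv_mul_iff_mul_eq] at hgh
  have h' := congrArg (fun x : Matrix.GeneralLinearGroup (Fin 2) F => (x : Matrix (Fin 2) (Fin 2) F))
    hgh
  simp [diagE] at h'
  have e00 := congrFun (congrFun h' 0) 0
  have e01 := congrFun (congrFun h' 0) 1
  have e10 := congrFun (congrFun h' 1) 0
  have e11 := congrFun (congrFun h' 1) 1
  simp [Matrix.mul_apply, Matrix.vecMul, dotProduct, Fin.sum_univ_two] at e00 e01 e10 e11
  apply ext4 <;> simp [twist]
  · exact mul_left_cancel₀ he (by linear_combination e00)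
  · linear_combination e01
  · field_simp
    linear_combination e10
  · linear_combination e11

end CfsgLib.Sl2Chars
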