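import Cfsg.Agent.Sl2Chars.McKayTwo
import Cfsg.Agent.Sl2Chars.Odd
import Cfsg.Agent.SL2.Dicyclic
import Cfsg.Agent.SL2.Sylow
import Cfsg.Agent.SL2.Torus
import Cfsg.Agent.TwoGroup.MaximalClass

/-!
The McKay count for `SL₂(q)`, `q` odd.
-/

set_option autoImplicit false
set_option linter.unusedSectionVars false

open scoped Classical commutatorElement

noncomputable section

namespace CfsgLib.Sl2Chars

open Cfsg CfsgLib.SL2

variable {F : Type*} [Field F] [Fintype F] [DecidableEq F]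

local notation "SLG" => Matrix.SpecialLinearGroup (Fin 2) F

theorem card_good_degree (h2 : (2 : F) ≠ 0) {ν : F} (hν : ¬ IsSquare ν) (ℓ j : ℕ)
    (hj : Fintype.card F = 2 * j + 1) :
    (Nat.card {χ : IrrCharacter SLG // ¬ ℓ ∣ charDegree (χ : SLG → ℂ)} : ℂ) =
      ((j : ℂ) - 1) * (if ℓ ∣ 2 * (j + 1) then 0 else 1) +
        ((if ℓ ∣ 1 then 0 else 1) + (if ℓ ∣ 2 * j + 1 then 0 else 1) +
          2 * (if ℓ ∣ j + 1 then 0 else 1)) +
      ((j : ℂ) * (if ℓ ∣ 2 * j then 0 else 1) + 2 * (if ℓ ∣ j then 0 else 1)) := by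
  have hdeg : ∀ χ : IrrCharacter SLG, charDegree (χ : SLG → ℂ) = patDeg (Fintype.card F) (pat ν χ) :=
    fun χ => Chars.charDegree_eq_of_map_one (apply_one_pat h2 hν χ)
  rw [Nat.card_eq_fintype_card, Fintype.card_subtype, Finset.natCast_card_filter]
  simp only [hdeg, ite_not]
  rw [sum_pat h2 hν fun x => if ℓ ∣ patDeg (Fintype.card F) x then (0 : ℂ) else 1]
  have e : (2 * j + 1 - 1) / 2 = j := by omega
  simp only [patDeg, hj, e, add_zero, mul_one, zero_add, mul_zero]
  rw [show 2 + j * (1 + 1) = 2 * (j + 1) by ring, show 1 + j * (1 + 1) = 2 * j + 1 by ring,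
    show 1 + j = j + 1 by ring, show j * (1 + 1) = 2 * j by ring]
  push_cast
  ring

theorem card_comm_solutions (α β : F) :
    Nat.card {p : F × F // α * p.1 = β * p.2} =
      if α = 0 ∧ β = 0 then Fintype.card F ^ 2 else Fintype.card F := by
  split_ifs with h
  · rw [Nat.card_congr (Equiv.subtypeUnivEquiv (fun p => by rw [h.1, h.2, zero_mul, zero_mul])),
      Nat.card_prod, Nat.card_eq_fintype_card, sq]
  · rw [← Nat.card_eq_fintype_card]
    by_cases ha : α = 0
    · have hb : β ≠ 0 := fun hb => h ⟨ha, hb⟩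
      refine Nat.card_congr ⟨fun p => p.1.1, fun t => ⟨(t, 0), by simp [ha]⟩, ?_, fun t => rfl⟩
      rintro ⟨⟨t, s⟩, hp⟩
      rw [ha, zero_mul, eq_comm, mul_eq_zero, or_iff_right hb] at hp
      simp only at hp
      subst hp
      rfl
    · refine Nat.card_congr ⟨fun p => p.1.2, fun s => ⟨(β * s / α, s), by field_simp⟩, ?_, fun t => rfl⟩
      rintro ⟨⟨t, s⟩, hp⟩
      simp only at hp
      have : β * s / α = t := by rw [← hp]; field_simp
      simp [this]

theorem commute_bEquiv_iff (p r : Fˣ × F) :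
    Commute (bEquiv p : (B : Subgroup SLG)) (bEquiv r) ↔
      ((p.1 : F) * ((r.1 : F) - ((r.1⁻¹ : Fˣ) : F))) * p.2 =
        ((r.1 : F) * ((p.1 : F) - ((p.1⁻¹ : Fˣ) : F))) * r.2 := by
  obtain ⟨a, t⟩ := p
  obtain ⟨b, s⟩ := r
  show _ * _ = _ * _ ↔ _
  rw [← Subtype.coe_inj, Subgroup.coe_mul, Subgroup.coe_mul, bEquiv_coe, bEquiv_coe]
  constructor
  · intro h
    have h1 := congrArg (fun x : SLG => x 0 1) h
    simp [Matrix.mul_apply, Fin.sum_univ_two] at h1 ⊢
    linear_combination -h1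
  · intro h
    simp at h
    apply ext4 <;> simp [Matrix.mul_apply, Fin.sum_univ_two] <;> try ring
    linear_combination -h

theorem card_conjClasses_B (h2 : (2 : F) ≠ 0) :
    Nat.card (ConjClasses (B : Subgroup SLG)) = Fintype.card F + 3 := by
  set q := Fintype.card F with hq
  have hq3 : 3 ≤ q := by
    have h1 : (2 : ℕ) ≤ q := Fintype.one_lt_card
    by_contra hlt
    have hq2 : q = 2 := by omega
    exact h2 (by have := FiniteField.cast_card_eq_zero F; rw [← hq, hq2] at this; exact_mod_cast this)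
  have hsq : (Finset.univ.filter fun a : Fˣ => a * a = 1).card = 2 := by
    rw [show (Finset.univ.filter fun a : Fˣ => a * a = 1) = {1, -1} by
      ext a
      simp only [Finset.mem_filter, Finset.mem_univ, true_and, Finset.mem_insert, Finset.mem_singleton]
      constructor
      · intro h
        rcases mul_self_eq_one_iff.1 (show (a : F) * a = 1 by rw [← Units.val_mul, h, Units.val_one]) with h | h
        · exact Or.inl (Units.ext h)
        · exact Or.inr (Units.ext h)
      · rintro (rfl | rfl) <;> simp]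
    refine Finset.card_pair fun h => h2 ?_
    have := congrArg Units.val h
    simp at this
    linear_combination this
  have hzero : ∀ a b : Fˣ, ((a : F) * ((b : F) - ((b⁻¹ : Fˣ) : F)) = 0 ∧
      (b : F) * ((a : F) - ((a⁻¹ : Fˣ) : F)) = 0) ↔ (a * a = 1 ∧ b * b = 1) := by
    have h : ∀ a : Fˣ, (a : F) - ((a⁻¹ : Fˣ) : F) = 0 ↔ a * a = 1 := fun a => by
      rw [sub_eq_zero, mul_eq_one_iff_eq_inv]
      exact ⟨fun e => Units.ext e, fun e => congrArg Units.val e⟩
    intro a b
    rw [mul_eq_zero, mul_eq_zero, or_iff_right a.ne_zero, or_iff_right b.ne_zero, h, h, and_comm]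
  have hBcard : Nat.card (B : Subgroup SLG) = (q - 1) * q := by
    rw [← Nat.card_congr bEquiv, Nat.card_prod, Nat.card_units, Nat.card_eq_fintype_card]
  have hpairs : Nat.card {p : ↥(B : Subgroup SLG) × ↥(B : Subgroup SLG) // Commute p.1 p.2} =
      ∑ ab : Fˣ × Fˣ, if ab.1 * ab.1 = 1 ∧ ab.2 * ab.2 = 1 then q ^ 2 else q := by
    let e : {p : ↥(B : Subgroup SLG) × ↥(B : Subgroup SLG) // Commute p.1 p.2} ≃
        Σ ab : Fˣ × Fˣ, {ts : F × F // ((ab.1 : F) * ((ab.2 : F) - ((ab.2⁻¹ : Fˣ) : F))) * ts.1 =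
          ((ab.2 : F) * ((ab.1 : F) - ((ab.1⁻¹ : Fˣ) : F))) * ts.2} :=
      { toFun := fun p => ⟨((bEquiv.symm p.1.1).1, (bEquiv.symm p.1.2).1),
          ⟨((bEquiv.symm p.1.1).2, (bEquiv.symm p.1.2).2),
            (commute_bEquiv_iff _ _).1 (by rw [Equiv.apply_symm_apply, Equiv.apply_symm_apply]; exact p.2)⟩⟩
        invFun := fun x => ⟨(bEquiv (x.1.1, x.2.1.1), bEquiv (x.1.2, x.2.1.2)),
          (commute_bEquiv_iff (x.1.1, x.2.1.1) (x.1.2, x.2.1.2)).2 x.2.2⟩
        left_inv := fun p => by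
          apply Subtype.ext
          simp
        right_inv := fun x => by
          obtain ⟨⟨a, b⟩, ⟨⟨t, s⟩, h⟩⟩ := x
          refine Sigma.subtype_ext ?_ ?_ <;> simp }
    rw [Nat.card_congr e, Nat.card_sigma]
    refine Finset.sum_congr rfl fun ab _ => ?_
    rw [card_comm_solutions]
    simp only [hzero, hq]
  have h := card_comm_eq_card_conjClasses_mul_card (B : Subgroup SLG)
  rw [hpairs, hBcard, Finset.sum_ite, Finset.sum_const, Finset.sum_const, smul_eq_mul, smul_eq_mul] at h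
  have h4 : (Finset.univ.filter fun ab : Fˣ × Fˣ => ab.1 * ab.1 = 1 ∧ ab.2 * ab.2 = 1).card = 4 := by
    rw [← Finset.univ_product_univ,
      Finset.filter_product (fun a : Fˣ => a * a = 1) (fun b : Fˣ => b * b = 1), Finset.card_product, hsq]
  have hrest := Finset.card_filter_add_card_filter_not (s := (Finset.univ : Finset (Fˣ × Fˣ)))
    (fun ab : Fˣ × Fˣ => ab.1 * ab.1 = 1 ∧ ab.2 * ab.2 = 1)
  rw [h4, Finset.card_univ, Fintype.card_prod, Fintype.card_units, ← hq] at hrest
  rw [h4] at h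
  set r := (Finset.univ.filter fun ab : Fˣ × Fˣ => ¬(ab.1 * ab.1 = 1 ∧ ab.2 * ab.2 = 1)).card
  obtain ⟨e, he⟩ : ∃ e, q = e + 1 := ⟨q - 1, by omega⟩
  rw [he] at h hrest ⊢
  simp only [Nat.add_sub_cancel] at h hrest
  apply Nat.eq_of_mul_eq_mul_right (show 0 < e * (e + 1) from Nat.mul_pos (by omega) (by omega))
  rw [← h]
  nlinarith [hrest]

theorem index_commutator_quaternion {k : ℕ} (hk : 1 ≤ k) :
    (commutator (QuaternionGroup (2 ^ k))).index ≤ 4 := by
  set m := 2 ^ k with hm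
  haveI : NeZero m := ⟨by positivity⟩
  set K := commutator (QuaternionGroup m)
  have hmem : ∀ i : ZMod (2 * m), QuaternionGroup.a (2 * i) ∈ K := by
    intro i
    have h : ⁅QuaternionGroup.a i, (QuaternionGroup.xa 0 : QuaternionGroup m)⁆ = QuaternionGroup.a (2 * i) := by
      rw [commutatorElement_def, eq_comm, eq_mul_inv_iff_mul_eq, eq_mul_inv_iff_mul_eq]
      simp only [QuaternionGroup.a_mul_xa, QuaternionGroup.xa_mul_a, QuaternionGroup.a_mul_a]
      congr 1
      ring
    rw [← h]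
    exact Subgroup.commutator_mem_commutator (Subgroup.mem_top _) (Subgroup.mem_top _)
  let rep : Bool × Bool → QuaternionGroup m ⧸ K := fun bc =>
    ((if bc.1 then QuaternionGroup.xa (if bc.2 then 1 else 0)
      else QuaternionGroup.a (if bc.2 then 1 else 0) : QuaternionGroup m) : QuaternionGroup m ⧸ K)
  have hsurj : Function.Surjective rep := by
    intro c
    obtain ⟨g, rfl⟩ := QuotientGroup.mk_surjective c
    have hz : ∀ i : ZMod (2 * m), ∃ b : Bool, ∃ j, i = (if b then 1 else 0) + 2 * j := by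
      intro i
      obtain ⟨n, rfl⟩ := ZMod.natCast_zmod_surjective i
      rcases Nat.even_or_odd n with ⟨j, hj⟩ | ⟨j, hj⟩
      · exact ⟨false, j, by simp [hj, two_mul]⟩
      · exact ⟨true, j, by simp [hj]; ring⟩
    cases g with
    | a i =>
      obtain ⟨b, j, rfl⟩ := hz i
      refine ⟨(false, b), ?_⟩
      show ((QuaternionGroup.a _ : QuaternionGroup m) : QuaternionGroup m ⧸ K) = _
      rw [← QuaternionGroup.a_mul_a, QuotientGroup.mk_mul, (QuotientGroup.eq_one_iff _).2 (hmem j), mul_one]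
    | xa i =>
      obtain ⟨b, j, rfl⟩ := hz i
      refine ⟨(true, b), ?_⟩
      show ((QuaternionGroup.xa _ : QuaternionGroup m) : QuaternionGroup m ⧸ K) = _
      rw [← QuaternionGroup.xa_mul_a, QuotientGroup.mk_mul, (QuotientGroup.eq_one_iff _).2 (hmem j), mul_one]
  refine (Nat.card_le_card_of_surjective rep hsurj).trans ?_
  simp

/-- The McKay equality. -/
theorem mckay_sl_two (hodd : Odd (Fintype.card F)) (ℓ : ℕ) [Fact ℓ.Prime] (S : Sylow ℓ SLG) :
    Nat.card {χ : IrrCharacter SLG // ¬ ℓ ∣ charDegree (χ : SLG → ℂ)} =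
      Nat.card {ψ : IrrCharacter (Subgroup.normalizer ((S : Subgroup SLG) : Set SLG)) //
        ¬ ℓ ∣ charDegree (ψ : Subgroup.normalizer ((S : Subgroup SLG) : Set SLG) → ℂ)} := by
  have hℓ : ℓ.Prime := Fact.out
  obtain ⟨p, hchar⟩ := CharP.exists F
  haveI := hchar
  haveI hp : Fact p.Prime := ⟨CharP.char_is_prime F p⟩
  obtain ⟨s, -, hps⟩ := FiniteField.card F p
  have h2 : (2 : F) ≠ 0 := by
    intro h
    have h' : p ∣ 2 := (CharP.cast_eq_zero_iff F p 2).1 (by exact_mod_cast h)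
    obtain rfl := (Nat.prime_dvd_prime_iff_eq hp.out Nat.prime_two).1 h'
    rw [hps] at hodd
    exact Nat.not_even_iff_odd.2 hodd ((Nat.even_pow' s.pos.ne').2 even_two)
  obtain ⟨ν, hν⟩ := exists_nonsquare h2
  obtain ⟨j, hj⟩ := hodd
  have hcardG := card_SL (F := F)
  set N := Subgroup.normalizer ((S : Subgroup SLG) : Set SLG) with hN
  have hSN : (S : Subgroup SLG) ≤ N := Subgroup.le_normalizer
  have hall : ∀ (A : Subgroup N) [A.Normal] [IsMulCommutative A], ¬ ℓ ∣ A.index →
      Nat.card {ψ : IrrCharacter N // ¬ ℓ ∣ charDegree (ψ : N → ℂ)} = Nat.card (ConjClasses N) := by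
    intro A _ _ hA
    rw [← Chars.card_irrCharacter]
    exact Nat.card_congr (Equiv.subtypeUnivEquiv fun ψ h => hA (h.trans (Chars.Induced.ito A ψ)))
  by_cases hℓp : ℓ = p
  · subst hℓp
    obtain ⟨c, hc⟩ := exists_conj_uSylow S
    have hNB : N = (B : Subgroup SLG).map (MulAut.conj c).toMonoidHom := by
      rw [hN, hc, ← normalizer_U, Subgroup.map_equiv_normalizer_eq]
    have hBN : Nat.card N = Nat.card (B : Subgroup SLG) := by
      rw [hNB]; exact Subgroup.card_map_of_injective (MulAut.conj c).injective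
    have hScard : Nat.card (S : Subgroup SLG) = Fintype.card F := by
      rw [hc, Subgroup.card_map_of_injective (MulAut.conj c).injective, U_card]
    haveI : ((S : Subgroup SLG).subgroupOf N).Normal := Subgroup.normal_subgroupOf_iff_le_normalizer hSN |>.2 le_rfl
    haveI : IsMulCommutative ((S : Subgroup SLG).subgroupOf N) := ⟨⟨fun x y => by
      obtain ⟨x', hx', ex⟩ := Subgroup.mem_map.1 (hc.le (Subgroup.mem_subgroupOf.1 x.2))
      obtain ⟨y', hy', ey⟩ := Subgroup.mem_map.1 (hc.le (Subgroup.mem_subgroupOf.1 y.2))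
      obtain ⟨a, rfl⟩ := mem_U.1 hx'
      obtain ⟨b, rfl⟩ := mem_U.1 hy'
      apply Subtype.ext
      apply Subtype.ext
      simp only [Subgroup.coe_mul, ← ex, ← ey, ← map_mul, ← u_add, add_comm a b]⟩⟩
    have hidx : ((S : Subgroup SLG).subgroupOf N).index = Fintype.card F - 1 := by
      have h := ((S : Subgroup SLG).subgroupOf N).card_mul_index
      rw [Nat.card_congr (Subgroup.subgroupOfEquivOfLe hSN).toEquiv, hScard, hBN,
        ← Nat.card_congr bEquiv, Nat.card_prod, Nat.card_units, Nat.card_eq_fintype_card,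
        mul_comm (Fintype.card F - 1)] at h
      exact Nat.eq_of_mul_eq_mul_left Fintype.card_pos h
    have hnd : ∀ d, d ∣ Fintype.card F - 1 ∨ d ∣ Fintype.card F + 1 → ¬ ℓ ∣ d := by
      intro d hd h
      have hq : ℓ ∣ Fintype.card F := hps ▸ dvd_pow_self ℓ s.pos.ne'
      rcases hd with hd | hd
      · have := Nat.dvd_sub hq (h.trans hd)
        rw [Nat.sub_sub_self Fintype.card_pos] at this
        exact hℓ.not_dvd_one this
      · exact hℓ.not_dvd_one ((Nat.dvd_add_right hq).1 (h.trans hd))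
    rw [hall _ (hidx ▸ hnd _ (Or.inl dvd_rfl)), ← Chars.card_irrCharacter,
      Nat.card_congr (Chars.irrEquiv ((MulEquiv.subgroupCongr hNB).trans
        ((B : Subgroup SLG).equivMapOfInjective _ (MulAut.conj c).injective).symm)),
      Chars.card_irrCharacter, card_conjClasses_B h2]
    apply Nat.cast_injective (R := ℂ)
    have d1 : ¬ ℓ ∣ 2 * (j + 1) := hnd _ (Or.inr (by rw [hj]; exact dvd_of_eq (by ring)))
    have d2 : ¬ ℓ ∣ j + 1 := hnd _ (Or.inr (by rw [hj]; exact ⟨2, by ring⟩))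
    have d3 : ¬ ℓ ∣ 2 * j := hnd _ (Or.inl (by rw [hj, Nat.add_sub_cancel]))
    have d4 : ¬ ℓ ∣ j := hnd _ (Or.inl (by rw [hj, Nat.add_sub_cancel]; exact ⟨2, by ring⟩))
    have d5 : ℓ ∣ 2 * j + 1 := hj ▸ (hps ▸ dvd_pow_self ℓ s.pos.ne')
    rw [card_good_degree h2 hν ℓ j hj, if_neg d1, if_neg hℓ.not_dvd_one, if_pos d5, if_neg d2,
      if_neg d3, if_neg d4, hj]
    push_cast
    ring
  by_cases hdiv : ℓ ∣ Nat.card SLG
  swap
  · have hbot : (S : Subgroup SLG) = ⊥ := by
      obtain ⟨a, ha⟩ := S.isPGroup'.exists_card_eq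
      rcases a with _ | a
      · exact Subgroup.eq_bot_of_card_eq _ (by simpa using ha)
      · exact absurd ((dvd_pow_self ℓ a.succ_ne_zero).trans (ha ▸ Subgroup.card_subgroup_dvd_card _)) hdiv
    have htop : N = ⊤ := by
      rw [hN, hbot]
      exact Subgroup.normalizer_eq_top _
    let e : SLG ≃* N := Subgroup.topEquiv.symm.trans (MulEquiv.subgroupCongr htop.symm)
    refine Nat.card_congr ((Chars.irrEquiv e).subtypeEquiv fun χ => ?_)
    rw [Chars.charDegree_irrEquiv]
  rw [hcardG] at hdiv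
  have hℓq : ¬ ℓ ∣ Fintype.card F := fun h =>
    hℓp ((Nat.prime_dvd_prime_iff_eq hℓ hp.out).1 (hℓ.dvd_of_dvd_pow (hps ▸ h)))
  have hℓ21 : ℓ ∣ Fintype.card F - 1 ∨ ℓ ∣ Fintype.card F + 1 := by
    have := (hℓ.dvd_mul.1 hdiv).resolve_left hℓq
    rw [show Fintype.card F ^ 2 - 1 = (Fintype.card F + 1) * (Fintype.card F - 1) by
      rw [← Nat.sq_sub_sq, one_pow]] at this
    exact (hℓ.dvd_mul.1 this).symm
  rw [hj, Nat.add_sub_cancel] at hℓ21
  rw [hj] at hℓq
  by_cases hℓ2 : ℓ = 2
  · subst hℓ2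
    obtain ⟨k, hk, ⟨eQ⟩⟩ := sylow_two_quaternion h2 S
    have hnc : ∃ x ∈ (S : Subgroup SLG), ∃ y ∈ (S : Subgroup SLG), x * y ≠ y * x := by
      by_contra hcon
      push Not at hcon
      haveI : NeZero (2 ^ k) := ⟨by positivity⟩
      have h := congrArg eQ (Subtype.ext (hcon _ (eQ.symm (QuaternionGroup.a 1)).2 _
        (eQ.symm (QuaternionGroup.xa 0)).2) :
          eQ.symm (QuaternionGroup.a 1) * eQ.symm (QuaternionGroup.xa 0) =
            eQ.symm (QuaternionGroup.xa 0) * eQ.symm (QuaternionGroup.a 1))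
      simp only [map_mul, MulEquiv.apply_symm_apply, QuaternionGroup.a_mul_xa, QuaternionGroup.xa_mul_a,
        QuaternionGroup.xa.injEq, zero_sub, zero_add] at h
      have h' : ((2 : ℕ) : ZMod (2 * 2 ^ k)) = 0 := by
        push_cast
        linear_combination -h
      rw [ZMod.natCast_eq_zero_iff] at h'
      have h4 := Nat.le_of_dvd (by norm_num) h'
      have : 2 ^ 1 ≤ 2 ^ k := Nat.pow_le_pow_right (by norm_num) hk
      omega
    haveI : ((S : Subgroup SLG).subgroupOf N).Normal := Subgroup.normal_subgroupOf_iff_le_normalizer hSN |>.2 le_rfl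
    have eS := Subgroup.subgroupOfEquivOfLe hSN
    have hS2 : IsPGroup 2 ((S : Subgroup SLG).subgroupOf N) := S.isPGroup'.of_equiv eS.symm
    have h4 : (commutator ((S : Subgroup SLG).subgroupOf N)).index = 4 := by
      refine le_antisymm ?_ (CfsgLib.TwoGroup.four_le_index_commutator hS2 ?_)
      · have hmap : (commutator (QuaternionGroup (2 ^ k))).map (eS.trans eQ).symm.toMonoidHom =
            commutator ((S : Subgroup SLG).subgroupOf N) := by
          rw [commutator_def, Subgroup.map_commutator,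
            Subgroup.map_top_of_surjective _ (eS.trans eQ).symm.surjective, commutator_def]
        rw [← hmap, Subgroup.index_map_eq _ (eS.trans eQ).symm.surjective (by
          rw [(MonoidHom.ker_eq_bot_iff _).2 (eS.trans eQ).symm.injective]; exact bot_le)]
        exact index_commutator_quaternion hk
      · intro hcomm
        obtain ⟨x, hx, y, hy, hxy⟩ := hnc
        exact hxy (congrArg (fun z : (S : Subgroup SLG).subgroupOf N => ((z : N) : SLG))
          (hcomm.is_comm.comm ⟨⟨x, hSN hx⟩, hx⟩ ⟨⟨y, hSN hy⟩, hy⟩))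
    have hodd' : Odd ((S : Subgroup SLG).subgroupOf N).index := by
      rw [← Nat.not_even_iff_odd, even_iff_two_dvd]
      intro h
      exact S.not_dvd_index (h.trans (Subgroup.relIndex_dvd_index_of_le hSN))
    have hC : ∀ g : N, (∀ s ∈ (S : Subgroup SLG).subgroupOf N, g * s = s * g) → g * g = 1 := by
      intro g hg
      obtain ⟨x, hx, y, hy, hxy⟩ := hnc
      have hgx : (g : SLG) * x = x * g := congrArg Subtype.val (hg ⟨x, hSN hx⟩ hx)
      have hgy : (g : SLG) * y = y * g := congrArg Subtype.val (hg ⟨y, hSN hy⟩ hy)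
      by_cases hgc : (g : SLG) ∈ Subgroup.center SLG
      · apply Subtype.ext
        rcases mem_center_iff'.1 hgc with h | h <;> simp [h]
      · exact absurd (centralizer_commute hgc
          (Subgroup.mem_centralizer_singleton_iff.2 hgx.symm)
          (Subgroup.mem_centralizer_singleton_iff.2 hgy.symm)) hxy
    rw [card_odd_degree_eq_four hS2 hodd' h4 hC]
    apply Nat.cast_injective (R := ℂ)
    rw [card_good_degree h2 hν 2 j hj, if_pos (dvd_mul_right 2 (j + 1)), if_neg hℓ.not_dvd_one, if_neg hℓq,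
      if_pos (dvd_mul_right 2 j)]
    rcases Nat.even_or_odd j with he | ho
    · rw [if_neg (Nat.not_even_iff_odd.2 he.add_one ∘ even_iff_two_dvd.2), if_pos he.two_dvd]
      norm_num
    · rw [if_pos ho.add_one.two_dvd, if_neg (Nat.not_even_iff_odd.2 ho ∘ even_iff_two_dvd.2)]
      norm_num
  -- odd `ℓ`, not the characteristic
  have hSne : (S : Subgroup SLG) ≠ ⊥ := fun h => by
    have := S.not_dvd_index
    rw [h, Subgroup.index_bot, hcardG] at this
    exact this hdiv
  obtain ⟨z, hzS, hzo, hzt, hSC⟩ := sylow_odd (p := p) hℓ2 hℓp S hSne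
  set C := Subgroup.centralizer ({z} : Set SLG) with hC
  have hzC : z ∈ C := Subgroup.mem_centralizer_singleton_iff.2 rfl
  have hNC : N = Subgroup.normalizer (C : Set SLG) := by
    refine le_antisymm (fun h hh => ?_) (fun h hh => ?_)
    · have h1 : h * z * h⁻¹ ∈ C := hSC ((Subgroup.mem_normalizer_iff.1 hh z).1 hzS)
      exact (mem_normalizer_torus_iff hzt).2 (eq_or_eq_inv_of_tr_eq hzt h1 (tr_conj z h))
    · have key : ∀ h : SLG, h ∈ Subgroup.normalizer (C : Set SLG) → ∀ x ∈ (S : Subgroup SLG),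
          h * x * h⁻¹ ∈ (S : Subgroup SLG) := by
        intro h hh x hx
        rcases (mem_normalizer_torus_iff hzt).1 hh with e | e
        · have hhC : h ∈ C := Subgroup.mem_centralizer_singleton_iff.2 (mul_inv_eq_iff_eq_mul.1 e)
          rw [centralizer_commute (not_mem_center_of_tr_sq_ne hzt) hhC (hSC hx), mul_inv_cancel_right]
          exact hx
        · rw [inverts_torus hzt e (hSC hx)]
          exact (S : Subgroup SLG).inv_mem hx
      refine Subgroup.mem_normalizer_iff.2 fun x => ⟨key h hh x, fun hx => ?_⟩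
      have := key h⁻¹ (Subgroup.inv_mem _ hh) _ hx
      simpa [mul_assoc] using this
  rw [hNC] at hall hSN ⊢
  set NC := Subgroup.normalizer (C : Set SLG) with hNCdef
  have hCN : C ≤ NC := Subgroup.le_normalizer
  haveI : (C.subgroupOf NC).Normal := Subgroup.normal_subgroupOf_iff_le_normalizer hCN |>.2 le_rfl
  haveI : IsMulCommutative (C.subgroupOf NC) := ⟨⟨fun x y => Subtype.ext (Subtype.ext
    (centralizer_commute (not_mem_center_of_tr_sq_ne hzt) (Subgroup.mem_subgroupOf.1 x.2)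
      (Subgroup.mem_subgroupOf.1 y.2)))⟩⟩
  have hidx : (C.subgroupOf NC).index = 2 := by
    have h := (C.subgroupOf NC).card_mul_index
    rw [Nat.card_congr (Subgroup.subgroupOfEquivOfLe hCN).toEquiv, card_normalizer_torus hzt,
      mul_comm 2] at h
    exact Nat.eq_of_mul_eq_mul_left Nat.card_pos h
  have hk := card_conjClasses_normalizer_torus h2 hzt
  have hℓnd2 : ¬ ℓ ∣ 2 := fun h => hℓ2 ((Nat.prime_dvd_prime_iff_eq hℓ Nat.prime_two).1 h)
  rw [hall _ (hidx ▸ hℓnd2)]
  have hℓC : ℓ ∣ Nat.card C := hzo ▸ (Subgroup.orderOf_dvd_natCard C hzC)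
  apply Nat.cast_injective (R := ℂ)
  rw [card_good_degree h2 hν ℓ j hj, if_neg hℓ.not_dvd_one, if_neg hℓq]
  have hkC : (2 : ℂ) * (Nat.card (ConjClasses NC) : ℂ) = (Nat.card C : ℂ) + 6 := by exact_mod_cast hk
  have hexcl : ¬ (ℓ ∣ 2 * j ∧ ℓ ∣ 2 * j + 1 + 1) := fun h =>
    hℓnd2 (by have := (Nat.dvd_add_right h.1).1 (show ℓ ∣ 2 * j + 2 by simpa [add_assoc] using h.2); exact this)
  rcases hℓ21 with h | h
  · have hCc : Nat.card C = 2 * j := by
      by_cases hs : IsSplitTrace (tr z)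
      · rw [hC, card_centralizer_split hzt hs, hj, Nat.add_sub_cancel]
      · exact absurd ⟨h, by rw [hC, card_centralizer_nonsplit hs, hj] at hℓC; exact hℓC⟩ hexcl
    have hj' : ℓ ∣ j := (hℓ.dvd_mul.1 h).resolve_left hℓnd2
    have d2 : ¬ ℓ ∣ j + 1 := fun h' => hℓ.not_dvd_one ((Nat.dvd_add_right hj').1 h')
    have d1 : ¬ ℓ ∣ 2 * (j + 1) := fun h' => d2 ((hℓ.dvd_mul.1 h').resolve_left hℓnd2)
    rw [if_neg d1, if_neg d2, if_pos h, if_pos hj']
    rw [hCc] at hkC
    push_cast at hkC ⊢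
    linear_combination (-1 / 2 : ℂ) * hkC
  · have hCc : Nat.card C = 2 * j + 1 + 1 := by
      by_cases hs : IsSplitTrace (tr z)
      · exact absurd ⟨by rw [hC, card_centralizer_split hzt hs, hj, Nat.add_sub_cancel] at hℓC; exact hℓC, h⟩ hexcl
      · rw [hC, card_centralizer_nonsplit hs, hj]
    have h1 : ℓ ∣ 2 * (j + 1) := by rwa [show 2 * (j + 1) = 2 * j + 1 + 1 by ring]
    have hj' : ℓ ∣ j + 1 := (hℓ.dvd_mul.1 h1).resolve_left hℓnd2
    have d4 : ¬ ℓ ∣ j := fun h' => hℓ.not_dvd_one ((Nat.dvd_add_right h').1 hj')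
    have d3 : ¬ ℓ ∣ 2 * j := fun h' => d4 ((hℓ.dvd_mul.1 h').resolve_left hℓnd2)
    rw [if_pos h1, if_pos hj', if_neg d3, if_neg d4]
    rw [hCc] at hkC
    push_cast at hkC ⊢
    linear_combination (-1 / 2 : ℂ) * hkC

end CfsgLib.Sl2Chars
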