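import Cfsg.Agent.Chars.Basic
import Cfsg.Agent.Chars.Induced.Ito
import Cfsg.Agent.Chars.Induced.Clifford
import Cfsg.Agent.PGroup.Frattini
import Mathlib

/-!
Odd degree characters of a group with a normal Sylow 2-subgroup `S`, `|S : S'| = 4`.
-/

set_option autoImplicit false
set_option linter.unusedSectionVars false

open scoped Classical commutatorElement

noncomputable section

namespace CfsgLib.Sl2Chars

open Cfsg

universe u

variable {N : Type u} [Group N] [Finite N] {S : Subgroup N} [S.Normal]

theorem derived_le_charKer_of_odd (hS2 : IsPGroup 2 S) (χ : IrrCharacter N)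
    (hχ : ¬ 2 ∣ charDegree (χ : N → ℂ)) : ⁅S, S⁆ ≤ Chars.charKer (χ : N → ℂ) := by
  haveI := Fintype.ofFinite N
  haveI := Fintype.ofFinite S
  obtain ⟨θ, hθ⟩ := Chars.Induced.exists_mult_restrict_ne_zero (N := S) χ
  have h1 := Chars.Induced.clifford_one χ θ hθ
  rw [← Chars.coe_charDegree, ← Chars.coe_charDegree] at h1
  have hdvd : charDegree (θ : S → ℂ) ∣ charDegree (χ : N → ℂ) :=
    ⟨Chars.Induced.mult (fun n : S => (χ : N → ℂ) n) θ * (Chars.Induced.inertia S (θ : S → ℂ)).index,
      Nat.cast_injective (R := ℂ) (by rw [h1]; push_cast; exact mul_comm _ _)⟩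
  have hθ1 : charDegree (θ : S → ℂ) = 1 := by
    obtain ⟨a, ha⟩ := hS2.exists_card_eq
    obtain ⟨b, -, hb⟩ := (Nat.dvd_prime_pow Nat.prime_two).1 (ha ▸ Chars.charDegree_dvd_card θ)
    rcases b with _ | b
    · simpa using hb
    · exact absurd ((Dvd.intro_left (2 ^ b) (hb.trans (pow_succ 2 b)).symm).trans hdvd) hχ
  obtain ⟨l, hl⟩ := Chars.exists_linChar_eq θ ((Chars.charDegree_eq_one_iff θ).1 hθ1)
  intro x hx
  have hxS : x ∈ S := Subgroup.commutator_le_left S S hx
  have hker : ∀ z : S, (z : N) ∈ ⁅S, S⁆ → (θ : S → ℂ) z = 1 := by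
    intro z hz
    rw [← Subgroup.map_subtype_commutator] at hz
    obtain ⟨z', hz', e⟩ := hz
    obtain rfl : z' = z := Subtype.ext e
    rw [← hl, Chars.linChar_apply]
    have : l z' = 1 := Abelianization.commutator_subset_ker l hz'
    rw [this, Units.val_one]
  have h := Chars.Induced.clifford χ θ hθ
  have hx' := congrFun h ⟨x, hxS⟩
  have h0 := congrFun h 1
  rw [Chars.mem_charKer_iff (Chars.isCharacter_coe χ)]
  simp only [Pi.smul_apply, Finset.sum_apply, smul_eq_mul] at hx' h0
  rw [OneMemClass.coe_one] at h0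
  rw [hx', h0]
  congr 1
  refine Finset.sum_congr rfl fun η hη => ?_
  obtain ⟨y, rfl⟩ := (Set.Finite.mem_toFinset _).1 hη
  simp only [Chars.Induced.conjIrr_coe, Chars.Induced.conjFun]
  rw [hker, hker]
  · simp
  · exact (inferInstance : (⁅S, S⁆ : Subgroup N).Normal).conj_mem _ hx _

theorem card_odd_degree_eq_four (hS2 : IsPGroup 2 S) (hodd : Odd S.index)
    (h4 : (commutator S).index = 4) (hC : ∀ g : N, (∀ s ∈ S, g * s = s * g) → g * g = 1) :
    Nat.card {χ : IrrCharacter N // ¬ 2 ∣ charDegree (χ : N → ℂ)} = 4 := by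
  haveI : Fact (Nat.Prime 2) := ⟨Nat.prime_two⟩
  set D : Subgroup N := ⁅S, S⁆ with hD
  have hDS : D ≤ S := Subgroup.commutator_le_left S S
  have hrel : D.relIndex S = 4 := by
    rw [← h4, Subgroup.relIndex]
    congr 1
    rw [hD, ← Subgroup.map_subtype_commutator, Subgroup.subgroupOf,
      Subgroup.comap_map_eq_self_of_injective (Subgroup.subtype_injective S)]
  set V : Subgroup (N ⧸ D) := S.map (QuotientGroup.mk' D) with hV
  haveI : V.Normal := Subgroup.Normal.map inferInstance _ (QuotientGroup.mk'_surjective D)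
  have hVidx : V.index = S.index :=
    Subgroup.index_map_eq _ (QuotientGroup.mk'_surjective D) (by rw [QuotientGroup.ker_mk']; exact hDS)
  have hVcard : Nat.card V = 4 := by
    have e1 : Nat.card (N ⧸ D) = D.index := rfl
    have e2 := V.card_mul_index
    rw [e1, ← Subgroup.relIndex_mul_index hDS, hrel, hVidx] at e2
    exact Nat.eq_of_mul_eq_mul_right (Nat.pos_of_ne_zero Subgroup.index_ne_zero_of_finite) e2
  haveI : IsMulCommutative V := by
    haveI : Fact (Nat.Prime 2) := ⟨Nat.prime_two⟩
    exact ⟨⟨IsPGroup.commutative_of_card_eq_prime_sq (p := 2) (by rw [hVcard]; norm_num)⟩⟩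
  set C : Subgroup (N ⧸ D) := Subgroup.centralizer (V : Set (N ⧸ D)) with hCdef
  have hVC : V ≤ C := Subgroup.le_centralizer V
  haveI : C.Normal := Subgroup.normal_centralizer
  -- no odd element centralises the Frattini quotient of `S`
  have hCV : C ≤ V := by
    set C' : Subgroup N := C.comap (QuotientGroup.mk' D) with hC'
    have hSC' : S ≤ C' := fun s hs => hVC ⟨s, hs, rfl⟩
    by_contra hne
    have hne' : ¬ C' ≤ S := fun h => hne (by
      rw [← Subgroup.map_comap_eq_self_of_surjective (QuotientGroup.mk'_surjective D) C]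
      exact Subgroup.map_mono h)
    have hk : S.relIndex C' ≠ 1 := fun h => hne' (Subgroup.relIndex_eq_one.1 h)
    obtain ⟨r, hr, hrk⟩ := Nat.exists_prime_and_dvd hk
    have hr2 : r ≠ 2 := by
      rintro rfl
      have h2 := hrk.trans (Subgroup.relIndex_dvd_index_of_le hSC')
      obtain ⟨c, hc⟩ := hodd
      omega
    haveI := Fact.mk hr
    obtain ⟨g, hg⟩ := exists_prime_orderOf_dvd_card' (G := C') r
      (hrk.trans (Dvd.intro_left _ (Subgroup.card_mul_index (S.subgroupOf C'))))
    have hgo : orderOf (g : N) = r := by rw [Subgroup.orderOf_coe, hg]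
    have hcomm : ∀ s ∈ S, (g : N) * s = s * (g : N) := by
      have hgr : IsPGroup r (Subgroup.zpowers (g : N)) := by
        refine IsPGroup.of_card (n := 1) ?_
        rw [Nat.card_zpowers, hgo, pow_one]
      let Cs : Subgroup S := (Subgroup.centralizer ({(g : N)} : Set N)).subgroupOf S
      have htop : Cs ⊔ frattini S = ⊤ := by
        rw [eq_top_iff]
        intro x _
        have hinv : ∀ z ∈ Subgroup.zpowers (g : N), ∀ y : N, (x : N)⁻¹ * y ∈ D →
            (x : N)⁻¹ * (z * y * z⁻¹) ∈ D := by
          intro z hz y hy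
          have hzC : z ∈ C' := (Subgroup.zpowers_le.2 g.2) hz
          have hc : (QuotientGroup.mk' D z) * (QuotientGroup.mk' D (x : N)) =
              (QuotientGroup.mk' D (x : N)) * (QuotientGroup.mk' D z) :=
            ((Subgroup.mem_centralizer_iff.1 hzC) _ ⟨x, x.2, rfl⟩).symm
          rw [← QuotientGroup.eq, eq_comm] at hy ⊢
          simp only [QuotientGroup.mk'_apply] at hc
          rw [QuotientGroup.mk_mul, QuotientGroup.mk_mul, hy, hc, QuotientGroup.mk_inv,
            mul_inv_cancel_right]
        let T := {y : N // (x : N)⁻¹ * y ∈ D}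
        letI : MulAction (Subgroup.zpowers (g : N)) T :=
          { smul := fun z y => ⟨(z : N) * y * (z : N)⁻¹, hinv z z.2 y y.2⟩
            one_smul := fun y => Subtype.ext (by
              show ((1 : Subgroup.zpowers (g : N)) : N) * y * ((1 : Subgroup.zpowers (g : N)) : N)⁻¹ = y
              simp)
            mul_smul := fun a b y => Subtype.ext (by
              show ((a * b : Subgroup.zpowers (g : N)) : N) * y * ((a * b : Subgroup.zpowers (g : N)) : N)⁻¹ =
                (a : N) * ((b : N) * y * (b : N)⁻¹) * (a : N)⁻¹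
              rw [Subgroup.coe_mul]; group) }
        have hTcard : Nat.card T = Nat.card D :=
          Nat.card_congr ((Equiv.mulLeft (x : N)⁻¹).subtypeEquiv fun y => Iff.rfl)
        have hmod := hgr.card_modEq_card_fixedPoints T
        have hnz : Nat.card (MulAction.fixedPoints (Subgroup.zpowers (g : N)) T) ≠ 0 := by
          intro h0
          rw [h0, hTcard, Nat.modEq_zero_iff_dvd] at hmod
          obtain ⟨a, ha⟩ := (hS2.to_le hDS).exists_card_eq
          rw [ha] at hmod
          exact hr2 ((Nat.prime_dvd_prime_iff_eq hr Nat.prime_two).1 (hr.dvd_of_dvd_pow hmod))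
        obtain ⟨⟨⟨y, hy⟩, hyfix⟩⟩ := (Nat.card_ne_zero.1 hnz).1
        have hyS : y ∈ S := by
          have := S.mul_mem x.2 (hDS hy)
          rwa [mul_inv_cancel_left] at this
        have hfix : (g : N) * y * (g : N)⁻¹ = y :=
          congrArg Subtype.val (hyfix ⟨g, Subgroup.mem_zpowers _⟩)
        have hyc : (⟨y, hyS⟩ : S) ∈ Cs := by
          rw [Subgroup.mem_subgroupOf, Subgroup.mem_centralizer_singleton_iff]
          exact (mul_inv_eq_iff_eq_mul.1 hfix).symm
        have hz : (⟨y, hyS⟩ : S)⁻¹ * x ∈ frattini S := by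
          refine CfsgLib.PGroup.commutator_le_frattini hS2 ?_
          have : ((⟨y, hyS⟩ : S)⁻¹ * x : S).1 ∈ D := by
            have := D.inv_mem hy
            simpa using this
          rw [hD, ← Subgroup.map_subtype_commutator] at this
          exact (Subgroup.mem_map_iff_mem (Subgroup.subtype_injective S)).1 this
        rw [show x = (⟨y, hyS⟩ : S) * ((⟨y, hyS⟩ : S)⁻¹ * x) by group]
        exact Subgroup.mul_mem_sup hyc hz
      have hall := frattini_nongenerating htop
      intro s hs
      have : (⟨s, hs⟩ : S) ∈ Cs := hall ▸ Subgroup.mem_top _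
      rw [Subgroup.mem_subgroupOf, Subgroup.mem_centralizer_singleton_iff] at this
      exact this.symm
    have h1 : orderOf (g : N) ∣ 2 := orderOf_dvd_of_pow_eq_one (by rw [pow_two]; exact hC _ hcomm)
    rw [hgo] at h1
    exact hr2 ((Nat.prime_dvd_prime_iff_eq hr Nat.prime_two).1 h1)
  -- the quotient embeds in the permutations of three points
  have hidx6 : V.index ∣ 6 := by
    letI : MulAction (N ⧸ D) {v : V // v ≠ 1} :=
      { smul := fun z v => ⟨⟨z * (v.1 : N ⧸ D) * z⁻¹, Subgroup.Normal.conj_mem inferInstance _ v.1.2 z⟩,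
          fun h => v.2 (Subtype.ext (conj_eq_one_iff.1 (congrArg Subtype.val h)))⟩
        one_smul := fun v => Subtype.ext (Subtype.ext (by
          show (1 : N ⧸ D) * (v.1 : N ⧸ D) * (1 : N ⧸ D)⁻¹ = v.1
          simp))
        mul_smul := fun a b v => Subtype.ext (Subtype.ext (by
          show a * b * (v.1 : N ⧸ D) * (a * b)⁻¹ = a * (b * (v.1 : N ⧸ D) * b⁻¹) * a⁻¹
          group)) }
    set φ := MulAction.toPermHom (N ⧸ D) {v : V // v ≠ 1}
    have hkerle : φ.ker ≤ V := by
      intro z hz
      refine hCV (Subgroup.mem_centralizer_iff.2 fun v hv => ?_)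
      by_cases hv1 : v = 1
      · simp [hv1]
      · have := Equiv.Perm.congr_fun (show φ z = 1 from hz) ⟨⟨v, hv⟩, fun h => hv1 (congrArg Subtype.val h)⟩
        have := congrArg (fun t : {v : V // v ≠ 1} => ((t : V) : N ⧸ D)) this
        exact (mul_inv_eq_iff_eq_mul.1 this).symm
    refine (Subgroup.index_dvd_of_le hkerle).trans ?_
    rw [Subgroup.index_ker]
    refine (Subgroup.card_subgroup_dvd_card φ.range).trans ?_
    haveI : Fintype {v : V // v ≠ 1} := Fintype.ofFinite _
    haveI : Fintype V := Fintype.ofFinite _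
    rw [Nat.card_perm, Nat.card_eq_fintype_card, Fintype.card_subtype_compl, Fintype.card_subtype_eq,
      ← Nat.card_eq_fintype_card, hVcard]
    rfl
  have hm : V.index = 1 ∨ V.index = 3 := by
    rw [hVidx] at hidx6 ⊢
    obtain ⟨c, hc⟩ := hodd
    have := Nat.le_of_dvd (by norm_num) hidx6
    rcases eq_or_ne S.index 5 with h5 | h5
    · rw [h5] at hidx6; norm_num at hidx6
    · omega
  have hIto : ∀ χ : IrrCharacter (N ⧸ D), charDegree (χ : N ⧸ D → ℂ) ∣ V.index :=
    fun χ => Chars.Induced.ito V χ
  -- the odd degree characters are those of the quotient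
  have e : Nat.card {χ : IrrCharacter N // ¬ 2 ∣ charDegree (χ : N → ℂ)} = Nat.card (IrrCharacter (N ⧸ D)) := by
    rw [Nat.card_congr (Chars.inflateEquiv D)]
    refine Nat.card_congr (Equiv.subtypeEquivRight fun χ => ⟨derived_le_charKer_of_odd hS2 χ, fun h => ?_⟩)
    obtain ⟨ψ, rfl⟩ := Chars.exists_inflate_eq D χ h
    rw [Chars.charDegree_inflate]
    intro h2
    rcases hm with h' | h' <;> have := h2.trans (hIto ψ) <;> rw [h'] at this <;> norm_num at this
  rw [e]
  rcases hm with h1 | h3
  · have hall : ∀ χ : IrrCharacter (N ⧸ D), charDegree (χ : N ⧸ D → ℂ) = 1 := fun χ =>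
      Nat.dvd_one.1 (h1 ▸ hIto χ)
    have hs := Chars.sum_charDegree_sq (G := N ⧸ D)
    simp only [hall, one_pow, Finset.sum_const, smul_eq_mul, mul_one, Finset.card_univ] at hs
    rw [← Nat.card_eq_fintype_card] at hs
    rw [hs, ← V.card_mul_index, hVcard, h1]
  · have hdeg : ∀ χ : IrrCharacter (N ⧸ D), charDegree (χ : N ⧸ D → ℂ) ^ 2 =
        if charDegree (χ : N ⧸ D → ℂ) = 1 then 1 else 9 := fun χ => by
      rcases (Nat.dvd_prime Nat.prime_three).1 (h3 ▸ hIto χ) with h | h <;> rw [h] <;> norm_num
    have hs := Chars.sum_charDegree_sq (G := N ⧸ D)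
    simp only [hdeg, Finset.sum_ite, Finset.sum_const, smul_eq_mul, mul_one] at hs
    rw [← V.card_mul_index, hVcard, h3] at hs
    set U := (Finset.univ : Finset (IrrCharacter (N ⧸ D))) with hU
    set a := (U.filter fun χ : IrrCharacter (N ⧸ D) => charDegree (χ : N ⧸ D → ℂ) = 1).card with ha
    set b := (U.filter fun χ : IrrCharacter (N ⧸ D) => ¬ charDegree (χ : N ⧸ D → ℂ) = 1).card with hb
    have hidx : a = (commutator (N ⧸ D)).index := by
      rw [← Chars.card_charDegree_eq_one, Nat.card_eq_fintype_card, Fintype.card_subtype, ha, hU]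
    have hne : (commutator (N ⧸ D)).index ≠ 12 := by
      intro h
      have hbot : commutator (N ⧸ D) = ⊥ := by
        refine Subgroup.eq_bot_of_card_eq _ ?_
        have := (commutator (N ⧸ D)).card_mul_index
        rw [h, ← V.card_mul_index, hVcard, h3] at this
        omega
      have hC : C = ⊤ := eq_top_iff.2 fun z _ => Subgroup.mem_centralizer_iff.2 fun v _ => by
        have : ⁅v, z⁆ ∈ commutator (N ⧸ D) :=
          Subgroup.commutator_mem_commutator (Subgroup.mem_top _) (Subgroup.mem_top _)
        rw [hbot, Subgroup.mem_bot] at this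
        exact commutatorElement_eq_one_iff_mul_comm.1 this
      rw [show V = ⊤ from eq_top_iff.2 (hC ▸ hCV), Subgroup.index_top] at h3
      omega
    have htot : Nat.card (IrrCharacter (N ⧸ D)) = a + b := by
      rw [Nat.card_eq_fintype_card, ha, hb, Finset.card_filter_add_card_filter_not, hU, Finset.card_univ]
    omega

end CfsgLib.Sl2Chars
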